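import Cfsg.Agent.Lib.Spor.ThB.Main
import Cfsg.Agent.Lib.Spor.Lift

set_option autoImplicit false
set_option maxRecDepth 100000

namespace Cfsg.Agent.Spor.ThB
open Cfsg.Agent.PG Cfsg.Agent.Spor

theorem liftAll {Γ : Type*} [Group Γ] {γ : ℕ → Γ} (h : ∀ j, 40 ≤ j → γ j = 1)
    (mcl6 : ∀ c ∈ cl6_l, HoldsG γ c)
    (mcl5 : ∀ c ∈ cl5_l, HoldsG γ c)
    (mcl4 : ∀ c ∈ cl4_l, HoldsG γ c)
    (mcl3 : ∀ c ∈ cl3_l, HoldsG γ c)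
    (mcl2 : ∀ c ∈ cl2_l, HoldsG γ c)
    (mcl1 : ∀ c ∈ cl1_l, HoldsG γ c)
    (mcl0 : ∀ c ∈ cl0_l, HoldsG γ c)
    : Lift A γ 33 := by
  have hγ : ∀ j, A.length ≤ j → γ j = 1 := fun j hj => h j (hlen ▸ hj)
  have lift7 : Lift A γ 40 := lift_last h
  have lift6 : Lift A γ 39 :=
    lift_plain hA hγ lift7 ok6 cl6 mcl6
  have lift5 : Lift A γ 38 :=
    lift_plain hA hγ lift6 ok5 cl5 mcl5
  have lift4 : Lift A γ 37 :=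
    lift_plain hA hγ lift5 ok4 cl4 mcl4
  have lift3 : Lift A γ 36 :=
    lift_plain hA hγ lift4 ok3 cl3 mcl3
  have lift2 : Lift A γ 35 :=
    lift_dc hA hγ lift3 stab3 ok2 cl2 mcl2
  have lift1 : Lift A γ 34 :=
    lift_dc hA hγ lift2 stab2 ok1 cl1 mcl1
  have lift0 : Lift A γ 33 :=
    lift_dc hA hγ lift1 stab1 ok0 cl0 mcl0
  exact lift0

end Cfsg.Agent.Spor.ThB
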